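import Mathlib
import Cfsg.Agent.H12.Gen
import Cfsg.Agent.H12.Bonds

/-! Generation of the Chevalley groups by two elements, and by `N` and root subgroups. -/

set_option autoImplicit false
set_option linter.unusedSectionVars false
set_option maxRecDepth 100000

namespace Cfsg.Agent.H12

open Cfsg.Lie

/-- the integer is `1` or `-1` -/
def ok1 (e : ℤ) : Bool := decide (e = 1) || decide (e = -1)

/-- the integer is `±1` or `±n` -/
def okN (n : ℕ) (e : ℤ) : Bool := ok1 e || decide (e = n) || decide (e = -n)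

section General

variable {D : ChevalleyDatum} [Good D] {K : Type*} [Field K]

theorem ok1_ne (e : ℤ) (h : ok1 e = true) : (e : K) ≠ 0 := by
  simp only [ok1, Bool.or_eq_true, decide_eq_true_eq] at h
  rcases h with rfl | rfl <;> simp

theorem okN_ne {n : ℕ} (hn : (n : K) ≠ 0) (e : ℤ) (h : okN n e = true) : (e : K) ≠ 0 := by
  simp only [okN, Bool.or_eq_true, decide_eq_true_eq] at h
  rcases h with (h | rfl) | rfl
  exacts [ok1_ne e h, by simpa, by simpa]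

theorem ok1_pow (e : ℤ) (h : ok1 e = true) (v : K) (hv : v ≠ 0) : ∃ t, t ≠ 0 ∧ t ^ e = v := by
  simp only [ok1, Bool.or_eq_true, decide_eq_true_eq] at h
  rcases h with rfl | rfl
  exacts [⟨v, hv, zpow_one v⟩, ⟨v⁻¹, inv_ne_zero hv, by simp⟩]

theorem ok2_pow [Finite K] (h2 : ringChar K = 2) (e : ℤ) (h : okN 2 e = true) (v : K)
    (hv : v ≠ 0) : ∃ t, t ≠ 0 ∧ t ^ e = v := by
  simp only [okN, Bool.or_eq_true, decide_eq_true_eq] at h
  obtain ⟨t, rfl⟩ := FiniteField.isSquare_of_char_two h2 v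
  have ht : t ≠ 0 := left_ne_zero_of_mul hv
  rcases h with (h | rfl) | rfl
  exacts [ok1_pow e h _ hv, ⟨t, ht, by simp [sq, zpow_ofNat]⟩,
    ⟨t⁻¹, inv_ne_zero ht, by simp [sq, zpow_ofNat]⟩]

theorem two_gen_big [Finite K] (hK : ∃ x : K, x ≠ 0 ∧ x ≠ 1) {ok okp : ℤ → Bool}
    (hok : ∀ e, ok e = true → (e : K) ≠ 0)
    (hp : ∀ e, okp e = true → ∀ v : K, v ≠ 0 → ∃ t, t ≠ 0 ∧ t ^ e = v) {X : Tab} (hX : tb D = X)
    (a b c : ℕ) (t : List (ℕ × ℕ × ℕ × ℕ × ℕ))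
    (h : (Nat.blt a X.n && Nat.blt b X.n && Nat.blt c X.n && decide (X.pairing c b = 0) &&
      ok1 (X.pairing c a) && ok1 (X.pairing c ((List.range X.l).reverse.foldr X.refl a)) &&
      X.gChk ok okp [List.range X.l] [] b t [a]) = true) :
    ∃ a b : D.group K, Subgroup.closure {a, b} = ⊤ := by
  subst hX
  simp only [Bool.and_eq_true, Nat.blt_eq, ok1, Bool.or_eq_true, decide_eq_true_eq, tb_pairing']
    at h
  obtain ⟨⟨⟨⟨⟨⟨ha, hb⟩, hc⟩, h0⟩, h1⟩, h2⟩, h3⟩ := h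
  lift a to Fin D.nroots using ha
  lift b to Fin D.nroots using hb
  lift c to Fin D.nroots using hc
  have e : List.range (tb D).l = (List.finRange D.rank).map Fin.val := (List.map_coe_finRange_eq_range).symm
  rw [e, ← List.map_reverse, ← val_wprod_smul, wprod_reverse (rsOf D).s_mul_s, ← cor_α] at h2
  obtain ⟨g, g', -, -, h⟩ := StSys.exists_two_gen (hS := chev_nc (grpSt D K)) (hM := grpNM) hK
    (RGD.rep_mw (List.finRange _)) ((cor_α c b).trans h0) (cor_α c a ▸ h1) h2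
  obtain ⟨b1, b2, b3⟩ := h (Subgroup.closure {g, g'}) (Subgroup.subset_closure (Or.inl rfl))
    (Subgroup.subset_closure (Or.inr rfl))
  refine ⟨g, g', eq_top_iff.2 (grpSt_top (D := D) (F := K) ▸ iSup_le_of_gChk (hM := grpNM)
    (Ns := [List.finRange _]) (v := []) hok hp (List.forall_mem_singleton.2 ⟨_, b2, RGD.rep_mw _⟩) rfl
    (by simpa using b3) t [a] (by simpa using inH_iff.2 b1) (by rw [e] at h3; exact h3))⟩

theorem U_le_of_two (hK : ¬ ∃ x : K, x ≠ 0 ∧ x ≠ 1) {G : Type*} [Group G]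
    {S : StSys (cdOf D) K G} {H : Subgroup G} {a : Fin D.nroots} (h : S.x a 1 ∈ H) : S.U a ≤ H :=
  S.U_le.2 fun t => by
    by_cases ht : t = 0
    · rw [ht, StSys.x_zero]; exact one_mem _
    · rwa [show t = 1 from by_contra fun e => hK ⟨t, ht, e⟩]

theorem two_gen_small (hK : ¬ ∃ x : K, x ≠ 0 ∧ x ≠ 1) {X : Tab} (hX : tb D = X)
    (a b : ℕ) (t : List (ℕ × ℕ × ℕ × ℕ × ℕ))
    (h : (Nat.blt a X.n && Nat.blt b X.n && (X.gChk ok1 ok1 [List.range X.l] [] a t [a] ||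
      X.gChk ok1 ok1 [] (List.range X.l) b t [a])) = true) :
    ∃ a b : D.group K, Subgroup.closure {a, b} = ⊤ := by
  subst hX
  simp only [Bool.and_eq_true, Nat.blt_eq, Bool.or_eq_true] at h
  obtain ⟨⟨ha, hb⟩, h3⟩ := h
  lift a to Fin D.nroots using ha
  lift b to Fin D.nroots using hb
  have e : List.range (tb D).l = (List.finRange D.rank).map Fin.val := (List.map_coe_finRange_eq_range).symm
  rw [e] at h3
  have h1 : ∀ g, (grpSt D K).x a 1 ∈ Subgroup.closure {(grpSt D K).x a 1, g} := fun g =>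
    Subgroup.subset_closure (Or.inl rfl)
  have h2 : ∀ g, g ∈ Subgroup.closure {(grpSt D K).x a 1, g} := fun g =>
    Subgroup.subset_closure (Or.inr rfl)
  rcases h3 with h3 | h3
  · exact ⟨_, _, eq_top_iff.2 (grpSt_top (D := D) (F := K) ▸ iSup_le_of_gChk (hM := grpNM)
      (Ns := [List.finRange _]) (v := []) ok1_ne ok1_pow 
      (List.forall_mem_singleton.2 ⟨_, h2 _, RGD.rep_mw _⟩) rfl
      (by simpa using h1 _) t [a] (by simpa using inH_iff.2 (U_le_of_two hK (h1 _))) h3)⟩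
  · exact ⟨_, _, eq_top_iff.2 (grpSt_top (D := D) (F := K) ▸ iSup_le_of_gChk (hM := grpNM)
      (Ns := []) (v := List.finRange _) ok1_ne ok1_pow (by simp) rfl (h2 _) t [a]
      (by simpa using inH_iff.2 (U_le_of_two hK (h1 _))) h3)⟩

theorem group_le_of_gChk {ok : ℤ → Bool} (hok : ∀ e, ok e = true → (e : K) ≠ 0) {X : Tab}
    (hX : tb D = X) {H : Subgroup (GL D.Idx K)} (hN : D.monomialSubgroup K ≤ H) {i : ℕ}
    (hi : i < D.rank) (L : List ℕ) (hL : ∀ j ∈ i :: L, j < D.rank ∧ D.rootSubgroup K (D.simple j) ≤ H)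
    (t : List (ℕ × ℕ × ℕ × ℕ × ℕ)) (h : X.gChk ok ok1 ((List.range X.l).map fun j => [j]) []
      (X.simple i) t ((i :: L).map X.simple) = true) : D.group K ≤ H := by
  subst hX
  have h1 : ∀ j ∈ i :: L, InH (chevSt D K) H (D.simple j) := fun j hj =>
    ⟨simple_lt (hL j hj).1, (rootSubgroup_eq ⟨_, simple_lt (hL j hj).1⟩).ge.trans (hL j hj).2⟩
  rw [group_eq_iSup]
  refine iSup_le_of_gChk (hM := chevNM) (Ns := (List.finRange _).map fun j => [j]) (v := [])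
    (b := (rsOf D).simple ⟨i, hi⟩) hok ok1_pow (fun w _ => ⟨_, hN (monomialSubgroup_eq.ge
      (RGD.rep_mw w).mem_N), RGD.rep_mw w⟩) rfl
    (mul_mem (one_mem H) ((h1 i (by simp)).2 (StSys.x_mem_U _ _ 1))) t _ (List.forall_mem_map.2 h1) ?_
  rw [List.map_map, show (List.map Fin.val ∘ fun j : Fin D.rank => [j]) =
    (fun j => [j]) ∘ Fin.val from rfl, ← List.map_map, List.map_coe_finRange_eq_range]
  exact h

theorem group_le_of_sl {A : ℕ → ℕ → ℤ}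
    (hA : ∀ i j : Fin D.rank, (rsOf D).co i (Pi.single j 1) = A i j)
    (h : (allLt D.rank fun i => allLt D.rank fun j => decide (i = j) || decide (A i j = 0) ||
      (decide (A i j = -1) && decide (A j i = -1))) = true) {i : ℕ} (hi : i < D.rank) :
    D.group K ≤ D.monomialSubgroup K ⊔ D.rootSubgroup K (D.simple i) := by
  simp only [allLt_iff, Bool.or_eq_true, Bool.and_eq_true, decide_eq_true_eq] at h
  set H := D.monomialSubgroup K ⊔ D.rootSubgroup K (D.simple i)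
  have h1 : ∀ j r, (chevSt D K).U r ≤ H → (chevSt D K).U ((rsOf D).sref j r) ≤ H := fun j r =>
    StSys.U_smul_le (hS := chevNC) (hM := chevNM) (RGD.rep_m j)
      (Subgroup.mem_sup_left (monomialSubgroup_eq.ge (RGD.rep_m j).mem_N))
  have h2 : ∀ j, (chevSt D K).U ((rsOf D).simple j) ≤ H := by
    by_contra! h3
    obtain ⟨a, ha, b, hb, e⟩ := rsOf_irred {j | (chevSt D K).U ((rsOf D).simple j) ≤ H}
      ⟨⟨i, hi⟩, (rootSubgroup_eq ((rsOf D).simple ⟨i, hi⟩)).ge.trans le_sup_right⟩ h3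
    have hab : a ≠ b := fun e => hb (e ▸ ha)
    obtain ⟨e1, e2⟩ := ((h a a.2 b b.2).resolve_left (not_or.2 ⟨fun e => hab (Fin.ext e), hA a b ▸ e⟩))
    refine hb (le_of_eq_of_le (congrArg _ ((rsOf D).inj ?_)) (h1 a _ (h1 b _ ha)))
    rw [← hA] at e1 e2
    simp only [RS.α_sref, RS.α_simple, e2, map_sub, map_smul, e1, RS.co_simple]
    module
  rw [group_eq_iSup]
  exact StSys.iSup_le_of_simple (hS := chevNC) (hM := chevNM) fun j =>
    ⟨h2 j, (rsOf D).sref_simple j ▸ h1 j _ (h2 j)⟩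

end General

variable {K : Type*} [Field K] [Finite K]

theorem two_gen_G2 (hK : ∃ x : K, x ≠ 0 ∧ x ≠ 1) :
    ∃ a b : chevG2.group K, Subgroup.closure {a, b} = ⊤ :=
  two_gen_big hK ok1_ne ok1_pow tbG2 5 3 1
      [(0, 0, 5, 0, 10), (0, 0, 10, 0, 11), (0, 0, 11, 0, 6), (4, 5, 0, 0, 3), (0, 0, 3, 0, 7),
      (0, 0, 7, 0, 9), (0, 0, 9, 0, 8), (0, 0, 8, 0, 4)]
      (by decide +kernel)

theorem two_gen_B2 (hK : ∃ x : K, x ≠ 0 ∧ x ≠ 1) :
    ∃ a b : chevB2.group K, Subgroup.closure {a, b} = ⊤ := by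
  by_cases h : ringChar K = 2
  · exact two_gen_big hK ok1_ne (ok2_pow h) tbB2 2 3 0
      [(0, 0, 2, 0, 1), (0, 0, 1, 0, 5), (4, 2, 0, 0, 3), (0, 0, 3, 0, 7), (0, 0, 7, 0, 4)]
      (by decide +kernel)
  · exact two_gen_big hK (okN_ne (n := 2) (Ring.two_ne_zero h)) ok1_pow tbB2 1 0 3
      [(0, 0, 1, 0, 5), (0, 0, 5, 0, 6), (0, 0, 6, 0, 2), (2, 1, 5, 1, 3), (2, 6, 2, 1, 4)]
      (by decide +kernel)

theorem two_gen_D4 : ∃ a b : chevD4.group K, Subgroup.closure {a, b} = ⊤ := by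
  by_cases hK : ∃ x : K, x ≠ 0 ∧ x ≠ 1
  · exact two_gen_big hK ok1_ne ok1_pow tbD4 7 5 0
      [(0, 0, 7, 0, 11), (0, 0, 11, 0, 20), (0, 0, 20, 0, 16), (0, 0, 16, 0, 12), (4, 7, 0, 0,
      5), (0, 0, 5, 0, 9), (0, 0, 9, 0, 1), (0, 0, 1, 0, 18), (0, 0, 18, 0, 14), (1, 7, 9, 0,
      13), (1, 7, 14, 0, 10)]
      (by decide +kernel)
  · exact two_gen_small hK tbD4 5 2
      [(3, 0, 5, 0, 9), (3, 0, 9, 0, 1), (3, 0, 1, 0, 18), (1, 5, 1, 0, 6), (3, 0, 6, 0, 19),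
      (1, 5, 19, 0, 14), (3, 0, 18, 1, 11), (3, 0, 14, 0, 22), (1, 5, 22, 0, 17), (1, 9, 11, 0,
      8), (1, 6, 11, 0, 16), (1, 9, 16, 0, 13), (3, 0, 8, 0, 10), (3, 0, 16, 0, 12)]
      (by decide +kernel)

theorem two_gen_F4 : ∃ a b : chevF4.group K, Subgroup.closure {a, b} = ⊤ := by
  by_cases hK : ∃ x : K, x ≠ 0 ∧ x ≠ 1
  · exact two_gen_big hK ok1_ne ok1_pow tbF4 16 14 0
      [(0, 0, 16, 0, 22), (0, 0, 22, 0, 23), (0, 0, 23, 0, 42), (0, 0, 42, 0, 30), (0, 0, 30, 0,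
      43), (0, 0, 43, 0, 31), (0, 0, 31, 0, 25), (0, 0, 25, 0, 24), (4, 16, 0, 0, 14), (0, 0,
      14, 0, 20), (0, 0, 20, 0, 12), (0, 0, 12, 0, 9), (0, 0, 9, 0, 19), (0, 0, 19, 0, 11), (0,
      0, 11, 0, 33), (0, 0, 33, 0, 27)]
      (by decide +kernel)
  · exact two_gen_small hK tbF4 4 11
      [(3, 0, 4, 0, 16), (2, 4, 16, 1, 0), (3, 0, 16, 0, 22), (3, 0, 22, 0, 23), (3, 0, 23, 0,
      42), (2, 23, 42, 1, 41), (3, 0, 41, 0, 45), (3, 0, 45, 0, 46), (2, 4, 46, 1, 30), (3, 0,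
      42, 1, 37), (3, 0, 46, 0, 47), (1, 0, 4, 0, 31), (1, 0, 16, 0, 43), (3, 0, 37, 0, 44), (3,
      0, 31, 0, 25), (3, 0, 43, 1, 38), (1, 4, 44, 0, 27), (1, 4, 25, 0, 5), (1, 16, 38, 0, 33),
      (1, 42, 38, 0, 14), (3, 0, 25, 0, 24), (3, 0, 14, 0, 20)]
      (by decide +kernel)

/-- closure steps -/
def genStE6 : List (ℕ × ℕ × ℕ × ℕ × ℕ) :=
  [(0, 0, 15, 0, 29), (0, 0, 29, 0, 24), (0, 0, 24, 0, 12), (0, 0, 12, 0, 19), (0, 0, 19, 0,
  32), (0, 0, 32, 0, 34), (0, 0, 34, 0, 35), (0, 0, 35, 0, 63), (0, 0, 63, 0, 43), (0, 0, 43, 0,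
  48), (0, 0, 48, 0, 60), (2, 29, 43, 1, 39), (2, 24, 48, 1, 37), (2, 12, 60, 1, 36), (2, 19,
  63, 1, 56), (2, 32, 43, 1, 42), (2, 34, 48, 1, 47), (1, 24, 32, 0, 46), (1, 24, 39, 0, 25)]

theorem two_gen_E6 : ∃ a b : chevE6.group K, Subgroup.closure {a, b} = ⊤ := by
  by_cases hK : ∃ x : K, x ≠ 0 ∧ x ≠ 1
  · exact two_gen_big hK ok1_ne ok1_pow tbE6 15 0 12 genStE6 (by decide +kernel)
  · exact two_gen_small hK tbE6 15 0 genStE6 (by decide +kernel)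

/-- closure steps -/
def genStE7 : List (ℕ × ℕ × ℕ × ℕ × ℕ) :=
  [(0, 0, 28, 0, 39), (0, 0, 39, 0, 56), (0, 0, 56, 0, 59), (0, 0, 59, 0, 61), (0, 0, 61, 0,
  62), (0, 0, 62, 0, 102), (0, 0, 102, 0, 74), (0, 0, 74, 0, 80), (0, 0, 80, 0, 97), (0, 0, 97,
  0, 86), (0, 0, 86, 0, 69), (0, 0, 69, 0, 66), (0, 0, 66, 0, 64), (0, 0, 64, 0, 63), (0, 0, 63,
  0, 23), (0, 0, 23, 0, 51), (1, 39, 102, 0, 93), (1, 39, 23, 0, 32), (1, 56, 74, 0, 73), (1,
  56, 51, 0, 52), (1, 62, 102, 0, 101), (1, 62, 23, 0, 24), (1, 28, 101, 0, 78), (1, 28, 24, 0,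
  47)]

theorem two_gen_E7 : ∃ a b : chevE7.group K, Subgroup.closure {a, b} = ⊤ := by
  by_cases hK : ∃ x : K, x ≠ 0 ∧ x ≠ 1
  · exact two_gen_big hK ok1_ne ok1_pow tbE7 28 0 34 genStE7 (by decide +kernel)
  · exact two_gen_small hK tbE7 28 0 genStE7 (by decide +kernel)

/-- closure steps -/
def genStE8 : List (ℕ × ℕ × ℕ × ℕ × ℕ) :=
  [(0, 0, 72, 0, 88), (0, 0, 88, 0, 109), (0, 0, 109, 0, 113), (0, 0, 113, 0, 116), (0, 0, 116,
  0, 118), (0, 0, 118, 0, 119), (0, 0, 119, 0, 173), (0, 0, 173, 0, 136), (0, 0, 136, 0, 143),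
  (0, 0, 143, 0, 166), (0, 0, 166, 0, 150), (0, 0, 150, 0, 177), (0, 0, 177, 0, 137), (0, 0,
  137, 0, 144), (0, 0, 144, 0, 167), (0, 0, 167, 0, 151), (0, 0, 151, 0, 130), (0, 0, 130, 0,
  126), (0, 0, 126, 0, 123), (0, 0, 123, 0, 121), (0, 0, 121, 0, 120), (0, 0, 120, 0, 66), (0,
  0, 66, 0, 103), (1, 88, 173, 0, 162), (1, 88, 66, 0, 77), (1, 109, 136, 0, 135), (1, 109, 103,
  0, 104), (1, 119, 173, 0, 172), (1, 119, 66, 0, 67), (1, 72, 172, 0, 141), (1, 72, 67, 0, 98)]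

theorem two_gen_E8 : ∃ a b : chevE8.group K, Subgroup.closure {a, b} = ⊤ := by
  by_cases hK : ∃ x : K, x ≠ 0 ∧ x ≠ 1
  · exact two_gen_big hK ok1_ne ok1_pow tbE8 72 0 35 genStE8 (by decide +kernel)
  · exact two_gen_small hK tbE8 72 0 genStE8 (by decide +kernel)

omit [Finite K]

theorem gen_N_G2 (h : ((3 : ℕ) : K) ≠ 0) :
    chevG2.group K ≤ chevG2.monomialSubgroup K ⊔ chevG2.rootSubgroup K (chevG2.simple 0) :=
  group_le_of_gChk (okN_ne (n := 3) h) tbG2 le_sup_left (by decide) []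
    (List.forall_mem_singleton.2 ⟨by decide, le_sup_right⟩)
      [(0, 0, 7, 0, 4), (0, 1, 7, 0, 8), (0, 1, 4, 0, 3), (2, 7, 3, 1, 5), (2, 4, 8, 1, 6)]
      (by decide +kernel)

theorem gen_N_B2 (h : ((2 : ℕ) : K) ≠ 0) :
    chevB2.group K ≤ chevB2.monomialSubgroup K ⊔ chevB2.rootSubgroup K (chevB2.simple 0) :=
  group_le_of_gChk (okN_ne (n := 2) h) tbB2 le_sup_left (by decide) []
    (List.forall_mem_singleton.2 ⟨by decide, le_sup_right⟩)
      [(0, 0, 5, 0, 2), (0, 1, 5, 0, 6), (0, 1, 2, 0, 1), (2, 5, 1, 1, 3), (2, 2, 6, 1, 4)]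
      (by decide +kernel)

theorem gen_N_F4_0 (h : ((2 : ℕ) : K) ≠ 0) :
    chevF4.group K ≤ chevF4.monomialSubgroup K ⊔ chevF4.rootSubgroup K (chevF4.simple 0) :=
  group_le_of_gChk (okN_ne (n := 2) h) tbF4 le_sup_left (by decide) []
    (List.forall_mem_singleton.2 ⟨by decide, le_sup_right⟩)
      [(0, 0, 33, 0, 14), (0, 1, 33, 0, 34), (0, 0, 34, 0, 27), (0, 1, 14, 0, 13), (0, 2, 34, 0,
      35), (0, 0, 13, 0, 20), (0, 2, 13, 0, 12), (0, 3, 35, 0, 36), (0, 3, 12, 0, 11), (2, 34,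
      12, 1, 22), (2, 13, 35, 1, 25), (2, 35, 11, 1, 23), (2, 12, 36, 1, 24)]
      (by decide +kernel)

theorem gen_N_F4_1 (h : ((2 : ℕ) : K) ≠ 0) :
    chevF4.group K ≤ chevF4.monomialSubgroup K ⊔ chevF4.rootSubgroup K (chevF4.simple 1) :=
  group_le_of_gChk (okN_ne (n := 2) h) tbF4 le_sup_left (by decide) []
    (List.forall_mem_singleton.2 ⟨by decide, le_sup_right⟩)
      [(0, 0, 27, 0, 34), (0, 1, 27, 0, 20), (0, 2, 27, 0, 28), (0, 1, 34, 0, 33), (0, 2, 20, 0,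
      19), (0, 3, 28, 0, 29), (0, 0, 33, 0, 14), (0, 3, 19, 0, 18), (2, 27, 19, 1, 22), (2, 20,
      28, 1, 25), (2, 28, 18, 1, 23), (2, 19, 29, 1, 24)]
      (by decide +kernel)

theorem gen_N2_B2 : chevB2.group K ≤ chevB2.monomialSubgroup K ⊔
    chevB2.rootSubgroup K (chevB2.simple 0) ⊔ chevB2.rootSubgroup K (chevB2.simple 1) :=
  group_le_of_gChk ok1_ne tbB2 (le_sup_of_le_left le_sup_left) (i := 0) (by decide) [1]
    (List.forall_mem_cons.2 ⟨⟨by decide, le_sup_of_le_left le_sup_right⟩,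
      List.forall_mem_singleton.2 ⟨by decide, le_sup_right⟩⟩)
      [(0, 0, 5, 0, 2), (0, 1, 4, 0, 3)]
      (by decide +kernel)

theorem gen_N2_F4 : chevF4.group K ≤ chevF4.monomialSubgroup K ⊔
    chevF4.rootSubgroup K (chevF4.simple 1) ⊔ chevF4.rootSubgroup K (chevF4.simple 2) :=
  group_le_of_gChk ok1_ne tbF4 (le_sup_of_le_left le_sup_left) (i := 1) (by decide) [2]
    (List.forall_mem_cons.2 ⟨⟨by decide, le_sup_of_le_left le_sup_right⟩,
      List.forall_mem_singleton.2 ⟨by decide, le_sup_right⟩⟩)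
      [(0, 0, 27, 0, 34), (0, 1, 27, 0, 20), (0, 2, 25, 0, 22), (0, 3, 25, 0, 26), (0, 1, 34, 0,
      33), (0, 2, 26, 0, 24), (0, 3, 22, 0, 21), (0, 0, 33, 0, 14), (0, 2, 21, 0, 23)]
      (by decide +kernel)

theorem gen_N2_G2 : chevG2.group K ≤ chevG2.monomialSubgroup K ⊔
    chevG2.rootSubgroup K (chevG2.simple 0) ⊔ chevG2.rootSubgroup K (chevG2.simple 1) :=
  group_le_of_gChk ok1_ne tbG2 (le_sup_of_le_left le_sup_left) (i := 0) (by decide) [1]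
    (List.forall_mem_cons.2 ⟨⟨by decide, le_sup_of_le_left le_sup_right⟩,
      List.forall_mem_singleton.2 ⟨by decide, le_sup_right⟩⟩)
      [(0, 0, 7, 0, 4), (0, 1, 6, 0, 5)]
      (by decide +kernel)

end Cfsg.Agent.H12
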