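import Mathlib
import Cfsg.Agent.H12.SS6
import Cfsg.Agent.H12.Aut1
import Cfsg.Agent.H19.Gt0
import Cfsg.Agent.H10.SL
import Cfsg.Agent.S1059

/-!
The involution centralizer of `G₂(q)`, `q` odd, as an image of pairs in `GL₂ × GL₂` of equal
determinant.
-/

set_option autoImplicit false
set_option linter.unusedVariables false
set_option linter.unusedSectionVars false
set_option linter.unusedSimpArgs false

namespace Cfsg.Agent.H12

open Cfsg Cfsg.Lie Cfsg.Agent.H19.Oc Cfsg.Agent.H19.Gt Cfsg.Agent.H19.St Matrix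
open scoped MatrixGroups

variable {F : Type*} [Field F]

/-- `diag(δ, 1)` -/
def gtD (δ : Fˣ) : GL (Fin 2) F := ⟨!![(δ : F), 0; 0, 1], !![((δ⁻¹ : Fˣ) : F), 0; 0, 1],
  by simp [one_fin_two], by simp [one_fin_two]⟩

theorem gtD_det (δ : Fˣ) : GeneralLinearGroup.det (gtD δ) = δ := by
  ext; simp [gtD, det_fin_two]

theorem gtD_mul (δ ε : Fˣ) : gtD (δ * ε) = gtD δ * gtD ε := by
  ext i j; fin_cases i <;> fin_cases j <;> simp [gtD, Matrix.mul_apply, Fin.sum_univ_two]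

/-- an invertible matrix of determinant one -/
def gtS (g : GL (Fin 2) F) (h : GeneralLinearGroup.det g = 1) : SL(2, F) :=
  ⟨g, by simpa [Units.ext_iff] using h⟩

theorem gtS_gl (g : GL (Fin 2) F) (h : GeneralLinearGroup.det g = 1) :
    SpecialLinearGroup.toGL (gtS g h) = g := by ext; rfl

theorem gt_toGL_inj : Function.Injective (SpecialLinearGroup.toGL : SL(2, F) → GL (Fin 2) F) :=
  SpecialLinearGroup.toGL_injective

theorem gt_det_toGL (A : SL(2, F)) : GeneralLinearGroup.det (SpecialLinearGroup.toGL A) = 1 := by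
  ext; simp

/-- the `SL₂`-part -/
def gtP (g : GL (Fin 2) F) : SL(2, F) :=
  gtS (g * (gtD (GeneralLinearGroup.det g))⁻¹) (by rw [map_mul, map_inv, gtD_det, mul_inv_cancel])

/-- conjugation of `SL₂` by `GL₂` -/
def gtC (g : GL (Fin 2) F) (A : SL(2, F)) : SL(2, F) :=
  gtS (g * SpecialLinearGroup.toGL A * g⁻¹) (by
    rw [map_mul, map_mul, map_inv, gt_det_toGL, mul_one, mul_inv_cancel])

theorem gtP_gl (g : GL (Fin 2) F) :
    SpecialLinearGroup.toGL (gtP g) = g * (gtD (GeneralLinearGroup.det g))⁻¹ := gtS_gl _ _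

theorem gtC_gl (g : GL (Fin 2) F) (A : SL(2, F)) :
    SpecialLinearGroup.toGL (gtC g A) = g * SpecialLinearGroup.toGL A * g⁻¹ := gtS_gl _ _

theorem gtC_mul (g : GL (Fin 2) F) (A B : SL(2, F)) : gtC g (A * B) = gtC g A * gtC g B :=
  gt_toGL_inj (by simp only [map_mul, gtC_gl]; group)

theorem gtP_mul (g h : GL (Fin 2) F) :
    gtP (g * h) = gtP g * gtC (gtD (GeneralLinearGroup.det g)) (gtP h) :=
  gt_toGL_inj (by simp only [map_mul, gtC_gl, gtP_gl, gtD_mul]; group)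

theorem gtC_xx (δ : Fˣ) (t : F) : gtC (gtD δ) (xx t) = xx (δ * t) := by
  ext i j; fin_cases i <;> fin_cases j <;>
    simp [gtC, gtS, gtD, Matrix.mul_apply, Fin.sum_univ_two, vecMul, dotProduct]

theorem gtC_yy (δ : Fˣ) (t : F) : gtC (gtD δ) (yy t) = yy (((δ⁻¹ : Fˣ) : F) * t) := by
  ext i j; fin_cases i <;> fin_cases j <;>
    simp [gtC, gtS, gtD, Matrix.mul_apply, Fin.sum_univ_two, vecMul, dotProduct, mul_comm]

theorem gt_conj {R : Type*} [Group R] (φ : SL(2, F) →* R) (m : R) (δ : Fˣ)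
    (hx : ∀ t, m * φ (xx t) * m⁻¹ = φ (xx (δ * t)))
    (hy : ∀ t, m * φ (yy t) * m⁻¹ = φ (yy (((δ⁻¹ : Fˣ) : F) * t))) (A : SL(2, F)) :
    m * φ A = φ (gtC (gtD δ) A) * m := by
  rw [← mul_inv_eq_iff_eq_mul]
  induction A using sl_induction with
  | hx t => rw [gtC_xx, hx]
  | hy t => rw [gtC_yy, hy]
  | hmul a b ha hb => rw [gtC_mul, map_mul, map_mul, ← ha, ← hb]; group

theorem gt_scalar (g : GL (Fin 2) F) (h : ∀ A, gtC g A = A) :
    ∃ l : F, (g : Matrix (Fin 2) (Fin 2) F) = l • 1 := by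
  have k : ∀ A : SL(2, F), (g : Matrix (Fin 2) (Fin 2) F) * A = A * g := fun A => by
    have := congrArg SpecialLinearGroup.toGL (h A)
    rw [gtC_gl, mul_inv_eq_iff_eq_mul] at this
    exact congrArg Units.val this
  have h1 := k (xx 1)
  have h2 := k (yy 1)
  generalize (g : Matrix (Fin 2) (Fin 2) F) = m at h1 h2
  have a1 := congrFun (congrFun h1 0) 0
  have a2 := congrFun (congrFun h1 0) 1
  have a3 := congrFun (congrFun h2 0) 0
  simp [Matrix.mul_apply, Fin.sum_univ_two] at a1 a2 a3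
  refine ⟨m 0 0, ?_⟩
  ext i j; fin_cases i <;> fin_cases j <;> simp [a1, a3]
  linear_combination -a2

theorem gt_main [Fintype F] (h2 : (2 : F) ≠ 0) {R : Type*} [Group R] (φ ψ : SL(2, F) →* R)
    (μ : Fˣ →* R) (hφ : Function.Injective φ) (hψ : Function.Injective ψ)
    (hc : ∀ A B, φ A * ψ B = ψ B * φ A)
    (m1 : ∀ δ A, μ δ * φ A = φ (gtC (gtD δ) A) * μ δ)
    (m2 : ∀ δ A, μ δ * ψ A = ψ (gtC (gtD δ) A) * μ δ)
    (hs : ∀ a : Fˣ, φ (hh xx yy (a : F)) * ψ (hh xx yy (a : F)) = μ (a * a)) :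
    ∃ Φ : Gam F →* R, Nat.card Φ.range = Nat.card SL(2, F) ^ 2 ∧ ∀ x : Gam F, Φ x = 1 ↔
      ∃ l : F, (x.1.1 : Matrix (Fin 2) (Fin 2) F) = l • 1 ∧
        (x.1.2 : Matrix (Fin 2) (Fin 2) F) = l • 1 := by
  have hd : ∀ x : Gam F, GeneralLinearGroup.det x.1.2 = GeneralLinearGroup.det x.1.1 := fun x =>
    Units.ext (mem_Gam.1 x.2).symm
  let Φ : Gam F →* R := MonoidHom.mk'
    (fun x => φ (gtP x.1.1) * ψ (gtP x.1.2) * μ (GeneralLinearGroup.det x.1.1)) fun x y => by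
      simp only [Subgroup.coe_mul, Prod.fst_mul, Prod.snd_mul, gtP_mul, map_mul, hd]
      calc _ = φ (gtP x.1.1) * (φ (gtC (gtD (GeneralLinearGroup.det x.1.1)) (gtP y.1.1)) *
            ψ (gtP x.1.2)) * (ψ (gtC (gtD (GeneralLinearGroup.det x.1.1)) (gtP y.1.2)) *
            μ (GeneralLinearGroup.det x.1.1)) * μ (GeneralLinearGroup.det y.1.1) := by group
        _ = φ (gtP x.1.1) * ψ (gtP x.1.2) *
            (φ (gtC (gtD (GeneralLinearGroup.det x.1.1)) (gtP y.1.1)) *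
            μ (GeneralLinearGroup.det x.1.1)) * ψ (gtP y.1.2) *
            μ (GeneralLinearGroup.det y.1.1) := by rw [hc, ← m2]; group
        _ = _ := by rw [← m1]; group
  have hΦ : ∀ x, Φ x = φ (gtP x.1.1) * ψ (gtP x.1.2) * μ (GeneralLinearGroup.det x.1.1) :=
    fun _ => rfl
  have sc : ∀ (g : GL (Fin 2) F) (l : Fˣ), (g : Matrix (Fin 2) (Fin 2) F) = (l : F) • 1 →
      GeneralLinearGroup.det g = l * l ∧ gtP g = (hh xx yy (l : F))⁻¹ := fun g l e => by
    have e1 : GeneralLinearGroup.det g = l * l := by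
      ext; simp [e, pow_two]
    refine ⟨e1, eq_inv_of_mul_eq_one_left (gt_toGL_inj ?_)⟩
    rw [map_mul, gtP_gl, e1, map_one]
    ext i j
    have e2 := coe_hh l.ne_zero
    fin_cases i <;> fin_cases j <;>
      simp [gtD, e, e2, Matrix.mul_apply, Fin.sum_univ_two, vecMul, dotProduct]
  have un : ∀ (g : GL (Fin 2) F) (l : F), (g : Matrix (Fin 2) (Fin 2) F) = l • 1 → l ≠ 0 := by
    rintro g l e rfl
    have := g.det_ne_zero
    simp [e] at this
  have k1 : ∀ (x : Gam F) (l : F), (x.1.1 : Matrix (Fin 2) (Fin 2) F) = l • 1 →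
      (x.1.2 : Matrix (Fin 2) (Fin 2) F) = l • 1 → Φ x = 1 := fun x l a b => by
    obtain ⟨l, rfl⟩ : ∃ u : Fˣ, (u : F) = l := ⟨Units.mk0 l (un _ _ a), rfl⟩
    rw [hΦ, (sc _ _ a).1, (sc _ _ a).2, (sc _ _ b).2, ← hs, map_inv, map_inv, hc]
    group
  have hk : ∀ x : Gam F, Φ x = 1 ↔ ∃ l : F, (x.1.1 : Matrix (Fin 2) (Fin 2) F) = l • 1 ∧
      (x.1.2 : Matrix (Fin 2) (Fin 2) F) = l • 1 := fun x => by
    refine ⟨fun h => ?_, fun ⟨l, a, b⟩ => k1 x l a b⟩
    have c1 : ∀ A, gtC x.1.1 A = gtP x.1.1 * gtC (gtD (GeneralLinearGroup.det x.1.1)) A *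
        (gtP x.1.1)⁻¹ := fun A => gt_toGL_inj (by
      simp only [map_mul, map_inv, gtC_gl, gtP_gl]; group)
    have c2 : ∀ A, gtC x.1.2 A = gtP x.1.2 * gtC (gtD (GeneralLinearGroup.det x.1.1)) A *
        (gtP x.1.2)⁻¹ := fun A => gt_toGL_inj (by
      simp only [map_mul, map_inv, gtC_gl, gtP_gl, hd]; group)
    rw [hΦ] at h
    have h' := eq_inv_of_mul_eq_one_right h
    obtain ⟨l, hl⟩ := gt_scalar x.1.1 fun A => hφ (by
      have := m1 (GeneralLinearGroup.det x.1.1) A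
      rw [c1, map_mul, map_mul, map_inv, ← mul_inv_eq_iff_eq_mul.2 this, h']
      have e := hc A (gtP x.1.2)
      have e' := hc (gtP x.1.1) (gtP x.1.2)
      calc _ = (φ (gtP x.1.1) * (ψ (gtP x.1.2))⁻¹ * (φ (gtP x.1.1))⁻¹) *
            (φ A * (φ (gtP x.1.1) * ψ (gtP x.1.2) * (φ (gtP x.1.1))⁻¹)) := by group
        _ = (ψ (gtP x.1.2))⁻¹ * (φ A * ψ (gtP x.1.2)) := by
          rw [e', mul_inv_cancel_right, (Commute.inv_right e').eq, mul_inv_cancel_right]
        _ = _ := by rw [e]; group)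
    obtain ⟨l', hl'⟩ := gt_scalar x.1.2 fun A => hψ (by
      have := m2 (GeneralLinearGroup.det x.1.1) A
      rw [c2, map_mul, map_mul, map_inv, ← mul_inv_eq_iff_eq_mul.2 this, h']
      have e := hc (gtP x.1.1) A
      calc _ = (φ (gtP x.1.1))⁻¹ * (ψ A * φ (gtP x.1.1)) := by group
        _ = _ := by rw [← e]; group)
    have e := mem_Gam.1 x.2
    rw [hl, hl'] at e
    simp only [det_smul, det_one, mul_one, Fintype.card_fin] at e
    rcases sq_eq_sq_iff_eq_or_eq_neg.1 e with rfl | rfl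
    · exact ⟨l, hl, hl'⟩
    · exfalso
      let y : Gam F := ⟨(x.1.1, x.1.1), mem_Gam.2 rfl⟩
      have hy := k1 y _ hl hl
      rw [hΦ] at hy
      have e1 : gtP x.1.1 = gtP x.1.2 := hψ (mul_left_cancel (mul_right_cancel (hy.trans h.symm)))
      have e2 := congrArg SpecialLinearGroup.toGL e1
      rw [gtP_gl, gtP_gl, hd, mul_left_inj] at e2
      rw [e2, hl'] at hl
      have e3 := congrFun (congrFun hl 0) 0
      simp at e3
      exact mul_ne_zero h2 (un _ _ hl') (by linear_combination e3)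
  refine ⟨Φ, ?_, hk⟩
  have c1 : Nat.card (Gam F) = Nat.card SL(2, F) ^ 2 * Nat.card Fˣ := by
    rw [pow_two, ← Nat.card_prod, ← Nat.card_prod]
    refine Nat.card_congr
      { toFun := fun x => ((gtP x.1.1, gtP x.1.2), GeneralLinearGroup.det x.1.1)
        invFun := fun y => ⟨(SpecialLinearGroup.toGL y.1.1 * gtD y.2,
          SpecialLinearGroup.toGL y.1.2 * gtD y.2), mem_Gam.2 (by simp)⟩
        left_inv := fun x => by
          ext1
          refine Prod.ext ?_ ?_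
          · simp only [gtP_gl, inv_mul_cancel_right]
          · simp only [gtP_gl, hd, inv_mul_cancel_right]
        right_inv := fun y => by
          refine Prod.ext (Prod.ext (gt_toGL_inj ?_) (gt_toGL_inj ?_)) ?_ <;>
            simp only [gtP_gl, map_mul, gt_det_toGL, gtD_det, one_mul, mul_inv_cancel_right] }
  have c2 : Nat.card Φ.ker = Nat.card Fˣ := by
    symm
    refine Nat.card_congr (Equiv.ofBijective (fun l => ⟨⟨(GeneralLinearGroup.scalar (Fin 2) l,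
      GeneralLinearGroup.scalar (Fin 2) l), mem_Gam.2 rfl⟩, k1 _ l (by simp [smul_one_eq_diagonal])
        (by simp [smul_one_eq_diagonal])⟩) ⟨fun a b e => ?_, fun x => ?_⟩)
    · have := congrArg (fun x : Φ.ker => (x.1.1.1 : Matrix (Fin 2) (Fin 2) F) 0 0) e
      exact Units.ext (by simpa using this)
    · obtain ⟨l, a, b⟩ := (hk x.1).1 x.2
      refine ⟨Units.mk0 l (un _ _ a), Subtype.ext (Subtype.ext (Prod.ext ?_ ?_))⟩
      · exact Units.ext (by simp [a, smul_one_eq_diagonal])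
      · exact Units.ext (by simp [b, smul_one_eq_diagonal])
  have c3 := Φ.ker.card_mul_index
  rw [Subgroup.index_ker, c1, c2, mul_comm] at c3
  exact Nat.eq_of_mul_eq_mul_right Nat.card_pos c3

theorem gt_sl2 [Fintype F] (r : Fin chevG2.nroots) : ∃ φ : SL(2, F) →* chevG2.group F,
    φ.range = (grpSt chevG2 F).U r ⊔ (grpSt chevG2 F).U ((rsOf chevG2).neg r) ∧
      φ.ker ≤ Subgroup.center _ ∧ (∀ t, φ (xx t) = (grpSt chevG2 F).x r t) ∧
      (∀ t, φ (yy t) = (grpSt chevG2 F).x ((rsOf chevG2).neg r) t) ∧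
      ∀ t, φ (hh xx yy t) = (grpSt chevG2 F).h r t := by
  obtain ⟨φ, a1, a2, a3⟩ := (grpNC (D := chevG2) (F := F)).exists_sl2 r (grpSt_r3 r)
  refine ⟨φ, a1, ker_le_center φ fun t u h => ?_, a2, a3, fun t => ?_⟩
  · by_contra! h0
    rw [a2, a3] at h
    obtain ⟨c, hc, h6⟩ := StSys.Rep.exists_conj grpNC grpNM
      (StSys.rep_n grpNC grpNM r (inv_ne_zero (neg_ne_zero.2 h0.2))) r
    have h7 : Commute ((grpSt chevG2 F).n r (-u)⁻¹) ((grpSt chevG2 F).x r t) :=
      (Commute.mul_left (StSys.x_mul_comm ..) (by simpa [Commute, SemiconjBy] using h.symm)).mul_left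
        (StSys.x_mul_comm ..)
    have h8 := h6 t
    rw [h7.eq, mul_inv_cancel_right, RS.rrefl_self] at h8
    exact h0.1 ((StSys.x_eq_one_iff grpNC grpNM).1 (RGD.eq_one_of_mem_U_U (X := grpRGD chevG2 F)
      ((rsOf chevG2).neg_ne r).symm (StSys.x_mem_U _ _ _) (h8 ▸ StSys.x_mem_U _ _ _)))
  · rw [← StSys.hh_eq]
    simp only [hh, H19.St.ww, map_mul, map_inv, a2, a3]

theorem gM {F : Type*} [Field F] [Fintype F] (hF : Odd (Fintype.card F)) :
    ∃ Φ : Gam F →* Cfsg.Lie.chevG2.group F, ¬ 2 ∣ Φ.range.index ∧ ∀ x : Gam F, Φ x = 1 ↔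
      ∃ l : F, (x.1.1 : Matrix (Fin 2) (Fin 2) F) = l • 1 ∧
        (x.1.2 : Matrix (Fin 2) (Fin 2) F) = l • 1 := by
  have h2 : (2 : F) ≠ 0 := fun e => by
    obtain ⟨k, hk⟩ := hF
    have := FiniteField.cast_card_eq_zero F
    rw [hk] at this
    push_cast at this
    rw [e] at this
    simp at this
  let μ : Fˣ →* chevG2.group F := (hP chevG2 F).comp
    (MonoidHom.mk' (fun z => tz chevG2 z fun _ => 1) fun a b => by ext i; simp [tz])
  have hμ : ∀ δ s u, μ δ * (grpSt chevG2 F).x s u * (μ δ)⁻¹ =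
      (grpSt chevG2 F).x s ((δ : F) ^ lamT (tb chevG2) (fun _ => 1) s * u) := fun δ s u => by
    simp only [μ, MonoidHom.comp_apply, MonoidHom.mk'_apply]
    rw [StSys.hProd_conj', wp_tz]
    simp
  have key : ∀ r s : Fin chevG2.nroots, chevG2.pairing r s = -1 →
      lamT (tb chevG2) (fun _ => 1) r = 1 →
      lamT (tb chevG2) (fun _ => 1) ((rsOf chevG2).neg r) = -1 →
      ∃ φ : SL(2, F) →* chevG2.group F, Function.Injective φ ∧
        φ.range = (grpSt chevG2 F).U r ⊔ (grpSt chevG2 F).U ((rsOf chevG2).neg r) ∧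
        (∀ δ A, μ δ * φ A = φ (gtC (gtD δ) A) * μ δ) ∧
        ∀ t, φ (hh xx yy t) = (grpSt chevG2 F).h r t := by
    intro r s hs l1 l2
    obtain ⟨φ, a1, a2, a3, a4, a5⟩ := gt_sl2 (F := F) r
    refine ⟨φ, (injective_iff_map_eq_one _).2 fun z hz =>
      (H19.St.mem_center_iff.1 (a2 hz)).resolve_right ?_, a1, fun δ => gt_conj φ _ δ
        (fun t => by rw [a3, a3, hμ, l1]; simp) (fun t => by rw [a4, a4, hμ, l2]; simp), a5⟩
    rintro rfl
    rw [show (-1 : SL(2, F)) = hh xx yy (-1) from Subtype.ext (by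
      rw [coe_hh (by simp)]; ext i j; fin_cases i <;> fin_cases j <;> simp), a5] at hz
    have := grpNC.h_conj_x r s (t := (-1 : F)) (by simp) 1
    rw [hz, cor_α, hs, one_mul, inv_one, mul_one] at this
    have e := (StSys.eq_of_x_eq grpNC grpNM one_ne_zero this).2
    simp at e
    exact h2 (by linear_combination e)
  obtain ⟨φ, a1, a3, a4, a5⟩ := key ⟨7, by decide⟩ ⟨2, by decide⟩ (by decide +kernel)
    (by rw [tbG2]; decide +kernel) (by rw [tbG2]; decide +kernel)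
  obtain ⟨ψ, b1, b3, b4, b5⟩ := key ⟨11, by decide⟩ ⟨1, by decide⟩ (by decide +kernel)
    (by rw [tbG2]; decide +kernel) (by rw [tbG2]; decide +kernel)
  have hc : ∀ x ∈ φ.range, ∀ y ∈ ψ.range, x * y = y * x := by
    rw [a3, b3]
    intro x hx y hy
    have h5 : ∀ a ∈ [7, chevG2.neg 7], ∀ b ∈ [11, chevG2.neg 11], ∀ ha hb,
        (grpSt chevG2 F).U ⟨a, ha⟩ ≤ Subgroup.centralizer ((grpSt chevG2 F).U ⟨b, hb⟩) := by
      rintro a ha b hb ha' hb' _ ⟨t, rfl⟩ _ ⟨u, rfl⟩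
      have := commute_of_commutes (grpSt chevG2 F) (p := 0) Nat.cast_zero (a := b) (b := a)
        ((by rw [tbG2]; decide +kernel : ∀ a ∈ [7, chevG2.neg 7], ∀ b ∈ [11, chevG2.neg 11],
          (tb chevG2).commutes 0 b a = true) a ha b hb) u.toAdd t.toAdd
      rwa [xN_lt _ ha', xN_lt _ hb'] at this
    have h6 : ∀ b ∈ [11, chevG2.neg 11], ∀ hb,
        (grpSt chevG2 F).U ⟨b, hb⟩ ≤ Subgroup.centralizer {x} := fun b hb hb' y hy _ e =>
      e ▸ (sup_le (h5 _ (by simp) b hb _ _) (h5 _ (by simp) b hb _ _) hx y hy).symm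
    exact sup_le (h6 _ (by simp) _) (h6 _ (by simp) _) hy _ rfl
  obtain ⟨Φ, hr, hk⟩ := gt_main h2 φ ψ μ a1 b1 (fun A B => hc _ ⟨A, rfl⟩ _ ⟨B, rfl⟩) a4 b4
    fun a => grp_eq_of_conj fun s u => by
      rw [a5, b5, hμ, show ∀ p q z : chevG2.group F, p * q * z * (p * q)⁻¹ =
        p * (q * z * q⁻¹) * p⁻¹ from fun p q z => by group, grpNC.h_conj_x _ _ a.ne_zero,
        grpNC.h_conj_x _ _ a.ne_zero, cor_α, cor_α, ← mul_assoc, ← _root_.zpow_add₀ a.ne_zero,
        (by rw [tbG2]; decide +kernel : ∀ s : Fin chevG2.nroots, chevG2.pairing 7 s +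
          chevG2.pairing 11 s = 2 * lamT (tb chevG2) (fun _ => 1) s) s, _root_.zpow_mul]
      simp [zpow_two, pow_two]
  refine ⟨Φ, ?_, hk⟩
  have c1 := Φ.range.card_mul_index
  rw [hr, H10.card_SL_two, S1059.result rfl] at c1
  obtain ⟨k, hk'⟩ := hF
  have hq := Fintype.one_lt_card (α := F)
  generalize Fintype.card F = q at *
  have c2 : Φ.range.index = q ^ 4 * (q ^ 4 + q ^ 2 + 1) := by
    refine Nat.eq_of_mul_eq_mul_left (n := (q * (q - 1) * (q + 1)) ^ 2) (by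
      have : 0 < q - 1 := by omega
      positivity) (c1.trans ?_)
    have hp : ∀ n, 1 ≤ q ^ n := fun n => Nat.one_le_pow _ _ hq.le
    zify [hp, hq.le]
    ring
  rw [c2, ← even_iff_two_dvd, Nat.not_even_iff_odd]
  have ho : Odd q := ⟨k, hk'⟩
  exact ho.pow.mul ((ho.pow.add_odd ho.pow).add_one)

end Cfsg.Agent.H12
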